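import Cfsg.Agent.H67.DC2

/-! The double cover of the alternating groups. -/

set_option autoImplicit false

namespace Cfsg.Agent.H38.AM

open Equiv Equiv.Perm Subgroup Cfsg.Agent.H78 Cfsg.Agent.H67
open scoped commutatorElement

theorem anti_of_rel {Γ : Type*} [Group Γ] {a b t : Γ} (ha : a ^ 3 = 1) (hb : b ^ 3 = 1)
    (ht : a * b * (a * b) = t) (hc : ∀ g, Commute g t) : ⁅a * b, b * a⁆ = t ^ 3 := by
  have a2 : a * a = a⁻¹ := by rw [eq_inv_iff_mul_eq_one, ← pow_three', ha]
  have b2 : b * b = b⁻¹ := by rw [eq_inv_iff_mul_eq_one, ← pow_three', hb]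
  have e1 : a * b * a = t * b⁻¹ := by rw [← ht]; group
  have e2 : b * a * (b * a) = t := by
    calc b * a * (b * a) = a⁻¹ * (a * b * (a * b)) * a := by group
      _ = t := by rw [ht, (hc a⁻¹).eq]; group
  have e3 : (a * b * (b * a)) * (a * b * (b * a)) = t⁻¹ := by
    have h1 : a * b * (b * a) = t⁻¹ * (a * (a * b) * a⁻¹) := by
      have : b⁻¹ = t⁻¹ * (a * b * a) := by rw [e1]; group
      calc a * b * (b * a) = a * (b * b) * a := by group
        _ = a * (t⁻¹ * (a * b * a)) * a := by rw [b2, this]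
        _ = t⁻¹ * (a * (a * b) * (a * a)) := by rw [← mul_assoc a, (hc a).inv_right.eq]; group
        _ = _ := by rw [a2]
    have h2 : (a * (a * b) * a⁻¹) * (a * (a * b) * a⁻¹) = t := by
      calc (a * (a * b) * a⁻¹) * (a * (a * b) * a⁻¹) = a * (a * b * (a * b)) * a⁻¹ := by group
        _ = t := by rw [ht, (hc a).eq]; group
    rw [h1, mul_assoc, ← mul_assoc (a * (a * b) * a⁻¹), (hc _).inv_right.eq, mul_assoc, h2]
    group
  generalize a * b = c at ht e3 ⊢
  generalize b * a = d at e2 e3 ⊢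
  have e4 : d * c = (t ^ 3)⁻¹ * (c * d) := by
    have h1 : d * c = c⁻¹ * t⁻¹ * d⁻¹ := by rw [← e3]; group
    have h2 : c⁻¹ = t⁻¹ * c := by rw [← ht]; group
    have h3 : d⁻¹ = t⁻¹ * d := by rw [← e2]; group
    rw [h1, h2, h3, mul_assoc t⁻¹ c, (hc c).inv_right.eq, mul_assoc, mul_assoc, ← mul_assoc c,
      (hc c).inv_right.eq]
    group
  rw [commutatorElement_def, mul_assoc, ← mul_inv_rev, e4]
  group

theorem exists_clifford (n : ℕ) : ∃ (C : Type) (_ : Ring C) (e : Fin n → C), (-1 : C) ≠ 1 ∧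
    (∀ i, e i * e i + e i * e i = 1) ∧ ∀ i j, i ≠ j → e i * e j + e j * e i = 0 := by
  let Q : QuadraticForm ℚ (Fin n → ℚ) := QuadraticMap.weightedSumSquares ℚ fun _ => (1 / 2 : ℚ)
  refine ⟨CliffordAlgebra Q, inferInstance, fun i => CliffordAlgebra.ι Q (Pi.single i 1), ?_,
    fun i => ?_, fun i j hij => ?_⟩
  · intro h
    have h1 : algebraMap ℚ (CliffordAlgebra Q) (-1) = algebraMap ℚ (CliffordAlgebra Q) 1 := by
      rw [map_neg, map_one, h]
    have := (algebraMap ℚ (CliffordAlgebra Q)).injective h1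
    norm_num at this
  · rw [CliffordAlgebra.ι_sq_scalar, ← map_add, ← map_one (algebraMap ℚ (CliffordAlgebra Q))]
    congr 1
    simp [Q, QuadraticMap.weightedSumSquares_apply, Pi.single_apply]
    norm_num
  · refine CliffordAlgebra.ι_mul_ι_add_swap_of_isOrtho ?_
    simp only [QuadraticMap.IsOrtho, Q, QuadraticMap.weightedSumSquares_apply, ← Finset.sum_add_distrib]
    refine Finset.sum_congr rfl fun k _ => ?_
    simp only [Pi.add_apply, Pi.single_apply]
    by_cases h1 : k = i <;> by_cases h2 : k = j <;> simp_all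

theorem exists_cover (n : ℕ) (hn : 4 ≤ n) : ∃ (Γ : Type) (_ : Group Γ) (_ : Finite Γ) (z : Γ)
    (_ : z ∈ center Γ), orderOf z = 2 ∧ z ∈ commutator Γ ∧ ∃ _ : (zpowers z).Normal,
      Nonempty (Γ ⧸ zpowers z ≃* alternatingGroup (Fin n)) := by
  obtain ⟨C, _, e, h1, h2, h3⟩ := exists_clifford n
  let u : Fin n := ⟨0, by omega⟩
  let v : Fin n := ⟨1, by omega⟩
  have huv : u ≠ v := by simp [u, v]
  have sq : ∀ i j, i ≠ j → (e i - e j) * (e i - e j) = 1 := fun i j hij => by
    have : 2 * ((e i - e j) * (e i - e j)) = (e i * e i + e i * e i) + (e j * e j + e j * e j)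
        - 2 * (e i * e j + e j * e i) := by noncomm_ring
    have h4 : (e i - e j) * (e i - e j) = e i * e i + e j * e j - (e i * e j + e j * e i) := by noncomm_ring
    have h5 : e i * e i = e j * e j := by
      calc e i * e i = e i * e i * (e j * e j + e j * e j) := by rw [h2, mul_one]
        _ = (e i * e i + e i * e i) * (e j * e j) := by noncomm_ring
        _ = _ := by rw [h2, one_mul]
    rw [h4, h3 i j hij, h5, h2, sub_zero]
  have a1 : ∀ i, i ≠ u → i ≠ v → (e u - e v) * (e i - e u) = -1 - (e i - e u) * (e u - e v) := fun i b1 b2 => by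
    have : (e u - e v) * (e i - e u) + (e i - e u) * (e u - e v) = (e i * e u + e u * e i)
        - (e i * e v + e v * e i) - (e u * e u + e u * e u) + (e u * e v + e v * e u) := by noncomm_ring
    rw [h3 i u b1, h3 i v b2, h2, h3 u v huv] at this
    rw [eq_sub_iff_add_eq, this]; simp
  let w : Fin n → C := fun i => (e i - e u) * (e u - e v)
  have w2 : ∀ i, i ≠ u → i ≠ v → w i * w i = -w i - 1 := fun i b1 b2 => by
    calc w i * w i = (e i - e u) * ((e u - e v) * (e i - e u)) * (e u - e v) := by simp only [w, mul_assoc]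
      _ = -w i - ((e i - e u) * (e i - e u)) * ((e u - e v) * (e u - e v)) := by
        rw [a1 i b1 b2]; simp only [w]; noncomm_ring
      _ = _ := by rw [sq i u b1, sq u v huv, one_mul]
  have w3 : ∀ i, i ≠ u → i ≠ v → w i * (w i * w i) = 1 := fun i b1 b2 => by
    rw [w2 i b1 b2, mul_sub, mul_neg, w2 i b1 b2]; simp
  have w4 : ∀ i j, i ≠ u → i ≠ v → j ≠ u → j ≠ v → i ≠ j → w i * w j * (w i * w j) = -1 :=
    fun i j b1 b2 b3 b4 b5 => by
      have e1 : w i * w j = -((e i - e u) * (e j - e v)) := by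
        calc w i * w j = (e i - e u) * ((e u - e v) * (e j - e u)) * (e u - e v) := by
              simp only [w, mul_assoc]
          _ = -((e i - e u) * (e u - e v)) - (e i - e u) * (e j - e u) * ((e u - e v) * (e u - e v)) := by
              rw [a1 j b3 b4]; noncomm_ring
          _ = _ := by rw [sq u v huv]; noncomm_ring
      have e2 : (e j - e v) * (e i - e u) = -((e i - e u) * (e j - e v)) := by
        have : (e j - e v) * (e i - e u) + (e i - e u) * (e j - e v) = (e i * e j + e j * e i)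
          - (e i * e v + e v * e i) - (e j * e u + e u * e j) + (e u * e v + e v * e u) := by noncomm_ring
        rw [h3 i j b5, h3 i v b2, h3 j u b3, h3 u v huv] at this
        rw [eq_neg_iff_add_eq_zero, this]; simp
      calc w i * w j * (w i * w j) = (e i - e u) * ((e j - e v) * (e i - e u)) * (e j - e v) := by
            rw [e1]; noncomm_ring
        _ = -(((e i - e u) * (e i - e u)) * ((e j - e v) * (e j - e v))) := by rw [e2]; noncomm_ring
        _ = _ := by rw [sq i u b1, sq j v b4, one_mul]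
  let y : Fin n → Cˣ × Perm (Fin n) := fun i =>
    if h : i ≠ u ∧ i ≠ v then (⟨w i, w i * w i, w3 i h.1 h.2, by rw [mul_assoc, w3 i h.1 h.2]⟩, c3 i u v)
    else 1
  have y1 : ∀ i, i ≠ u → i ≠ v → ((y i).1 : C) = w i ∧ (y i).2 = c3 i u v := fun i b1 b2 => by
    simp only [y, dif_pos (And.intro b1 b2), and_self]
  let z0 : Cˣ × Perm (Fin n) := (-1, 1)
  let Γ : Subgroup (Cˣ × Perm (Fin n)) := closure (insert z0 (Set.range y))
  let z : Γ := ⟨z0, subset_closure (Set.mem_insert _ _)⟩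
  let Y : Fin n → Γ := fun i => ⟨y i, subset_closure (Set.mem_insert_of_mem _ ⟨i, rfl⟩)⟩
  have zc : ∀ g : Γ, Commute g z := fun g => Subtype.ext (Prod.ext (by simp [z, z0]) (by simp [z, z0]))
  have z2 : z ^ 2 = 1 := Subtype.ext (Prod.ext (by simp [z, z0]) (by simp [z, z0]))
  have z1 : z ≠ 1 := fun h => h1 (by simpa [z, z0] using congrArg (fun g : Γ => (g.1.1 : C)) h)
  have zo : orderOf z = 2 := orderOf_eq_prime z2 z1
  have Y3 : ∀ i, i ≠ u → i ≠ v → Y i ^ 3 = 1 := fun i b1 b2 => Subtype.ext (Prod.ext (Units.ext (by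
    simp only [Y, Subgroup.coe_mul, Prod.fst_mul, Units.val_mul, (y1 i b1 b2).1, pow_three,
      w3 i b1 b2]; rfl)) (by
    simp only [Y, SubmonoidClass.coe_pow, Prod.pow_snd, (y1 i b1 b2).2, c3_pow_three b1 b2 huv]; rfl))
  have Y2 : ∀ i j, i ≠ u → i ≠ v → j ≠ u → j ≠ v → i ≠ j → Y i * Y j * (Y i * Y j) = z :=
    fun i j b1 b2 b3 b4 b5 => Subtype.ext (Prod.ext (Units.ext (by
      simp only [Y, Subgroup.coe_mul, Prod.fst_mul, Units.val_mul, (y1 i b1 b2).1, (y1 j b3 b4).1,
        w4 i j b1 b2 b3 b4 b5]; rfl)) (by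
      simp only [Y, Subgroup.coe_mul, Prod.snd_mul, (y1 i b1 b2).2, (y1 j b3 b4).2]
      rw [← pow_two, c3_mul_c3_sq huv b1 b2 b3 b4 b5]))
  have hN : (zpowers z).Normal := ⟨fun x hx g => by
    obtain ⟨k, rfl⟩ := mem_zpowers_iff.1 hx
    rw [((zc g).zpow_right k).eq, mul_inv_cancel_right]
    exact hx⟩
  let q := QuotientGroup.mk' (zpowers z)
  obtain ⟨φ, hφ⟩ := exists_hom_carmichael_alternating huv (fun i => q (Y i))
    (fun i b1 b2 => by rw [← map_pow, Y3 i b1 b2, map_one])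
    (fun i j b1 b2 b3 b4 b5 => by
      rw [← map_mul, ← map_pow, pow_two, Y2 i j b1 b2 b3 b4 b5]
      exact (QuotientGroup.eq_one_iff _).2 (mem_zpowers _))
  let S : Subgroup (Perm (Fin n)) :=
    { carrier := {σ | ∃ hσ : σ ∈ alternatingGroup (Fin n), ∃ g : Γ, g.1.2 = σ ∧ q g = φ ⟨σ, hσ⟩}
      one_mem' := ⟨one_mem _, 1, rfl, (map_one _).trans (map_one φ).symm⟩
      mul_mem' := by
        rintro a b ⟨ha, g, g1, g2⟩ ⟨hb, g', g1', g2'⟩
        exact ⟨mul_mem ha hb, g * g', by rw [← g1, ← g1']; rfl, by rw [map_mul, g2, g2', ← map_mul]; rfl⟩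
      inv_mem' := by
        rintro a ⟨ha, g, g1, g2⟩
        exact ⟨inv_mem ha, g⁻¹, by rw [← g1]; rfl, by rw [map_inv, g2, ← map_inv]; rfl⟩ }
  have hS : altOn Finset.univ ≤ S := altOn_le_of_c3 huv fun i _ b1 b2 =>
    ⟨sign_c3 b1 huv, Y i, (y1 i b1 b2).2, (hφ i b1 b2).symm⟩
  rw [altOn_univ] at hS
  have inj : Function.Injective φ := (injective_iff_map_eq_one φ).2 fun σ hσ => by
    obtain ⟨_, g, g1, g2⟩ := hS σ.2
    obtain ⟨k, rfl⟩ := mem_zpowers_iff.1 ((QuotientGroup.eq_one_iff g).1 (g2.trans hσ))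
    refine Subtype.ext (g1.symm.trans ?_)
    simp [z, z0]
  have sur : Function.Surjective φ := fun x => by
    obtain ⟨⟨g, hg⟩, rfl⟩ := QuotientGroup.mk'_surjective _ x
    change q ⟨g, hg⟩ ∈ φ.range
    induction hg using closure_induction with
    | mem x hx =>
      rcases hx with rfl | ⟨i, rfl⟩
      · exact ⟨1, (map_one φ).trans ((QuotientGroup.eq_one_iff z).2 (mem_zpowers _)).symm⟩
      · by_cases hi : i ≠ u ∧ i ≠ v
        · exact ⟨_, hφ i hi.1 hi.2⟩
        · refine ⟨1, (map_one φ).trans ((map_one q).symm.trans (congrArg q (Subtype.ext ?_)))⟩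
          simp only [y, dif_neg hi]; rfl
    | one => exact one_mem _
    | mul a b ha hb h1 h2 => exact (map_mul q ⟨a, ha⟩ ⟨b, hb⟩) ▸ mul_mem h1 h2
    | inv a ha h1 => exact (map_inv q ⟨a, ha⟩) ▸ inv_mem h1
  have f1 : Finite (Γ ⧸ zpowers z) := Finite.of_surjective φ sur
  have f2 : Finite (zpowers z) := Nat.finite_of_card_ne_zero (by rw [Nat.card_zpowers, zo]; decide)
  refine ⟨Γ, inferInstance, Finite.of_subgroup_quotient (zpowers z), z,
    mem_center_iff.2 zc, zo, ?_, hN, ⟨(MulEquiv.ofBijective φ ⟨inj, sur⟩).symm⟩⟩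
  let i : Fin n := ⟨2, by omega⟩
  let j : Fin n := ⟨3, by omega⟩
  have := anti_of_rel (Y3 i (by simp [i, u]) (by simp [i, v])) (Y3 j (by simp [j, u]) (by simp [j, v]))
    (Y2 i j (by simp [i, u]) (by simp [i, v]) (by simp [j, u]) (by simp [j, v]) (by simp [i, j])) zc
  rw [pow_succ, z2, one_mul] at this
  rw [← this]
  exact commutator_mem_commutator (mem_top _) (mem_top _)

end Cfsg.Agent.H38.AM
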