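import Cfsg.Agent.H63.AnDefs2

/-!
# A standard subgroup of type `Aₙ`: the wreath base over seven points
-/

set_option autoImplicit false
set_option linter.unusedSectionVars false

namespace Cfsg.Agent.H38.AnLoc

open Cfsg Cfsg.Agent.H63 Cfsg.Agent.H63.SL Cfsg.Agent.H63.AN Subgroup
open Cfsg.Agent.H7.AA
open Cfsg.Agent.H78
open Equiv (swap Perm)
open Equiv.Perm (sign ofSubtype)

universe u

variable {G : Type u} [Group G] {α : Type} [Fintype α] [DecidableEq α]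

theorem d2_moves {a b c d x : α} (h : [a, b, c, d].Nodup) :
    d2 a b c d x ≠ x ↔ x ∈ ({a, b, c, d} : Finset α) := by
  obtain ⟨h1, h2, h3, h4, h5, h6⟩ := nodup4.1 h
  rw [d2_apply]
  simp only [Finset.mem_insert, Finset.mem_singleton, Equiv.swap_apply_def]
  split_ifs <;> grind

theorem d2_card {w : Perm α} (h : IsD2 w) : w * w = 1 ∧ w.support.card = 4 := by
  obtain ⟨a, b, c, d, h, rfl⟩ := h
  have e : (d2 a b c d).support = {a, b, c, d} := by
    ext x; rw [Equiv.Perm.mem_support, d2_moves h]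
  obtain ⟨h1, h2, h3, h4, h5, h6⟩ := nodup4.1 h
  refine ⟨?_, by rw [e]; exact Finset.card_eq_four.2 ⟨a, b, c, d, h1, h2, h3, h4, h5, h6, rfl⟩⟩
  ext x
  simp only [Equiv.Perm.mul_apply, d2_apply, Equiv.swap_apply_def, Equiv.Perm.one_apply]
  split_ifs <;> grind

theorem os_mem (Q : Finset α) (s : Perm {x // x ∈ Q}) : ofSubtype s ∈ symOn Q :=
  mem_symOn.2 fun _ hx => Equiv.Perm.ofSubtype_apply_of_not_mem s hx

theorem os_sur {Q : Finset α} {w : Perm α} (h : w ∈ symOn Q) :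
    ∃ s : Perm {x // x ∈ Q}, ofSubtype s = w := by
  have k : ∀ x, w x ∈ Q ↔ x ∈ Q := fun x => ⟨fun hx => by
    by_contra hn
    exact hn (mem_symOn.1 h x hn ▸ hx), symOn_apply_mem h⟩
  refine ⟨w.subtypePerm k, Equiv.Perm.ofSubtype_subtypePerm k fun x hx => ?_⟩
  by_contra hn
  exact hx (mem_symOn.1 h x hn)

theorem os_d2 {Q : Finset α} (a b c d : {x // x ∈ Q}) :
    ofSubtype (d2 a b c d) = d2 (a : α) b c d := by
  simp only [d2, map_mul, Equiv.Perm.ofSubtype_swap_eq]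

theorem os_isD2 {Q : Finset α} {s : Perm {x // x ∈ Q}} (h : IsD2 s) : IsD2 (ofSubtype s) := by
  obtain ⟨a, b, c, d, h, rfl⟩ := h
  refine ⟨a, b, c, d, ?_, os_d2 a b c d⟩
  simpa only [nodup4, ne_eq, Subtype.ext_iff] using h

theorem os_inQ {Q : Finset α} {w : Perm α} (h : InQ Q w) :
    ∃ s : Perm {x // x ∈ Q}, InQ Finset.univ s ∧ ofSubtype s = w := by
  obtain ⟨⟨a, b, c, d, h, rfl⟩, hQ⟩ := h
  have k : ∀ x ∈ ({a, b, c, d} : Finset α), x ∈ Q := fun x hx => by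
    by_contra hn
    exact (d2_moves h).2 hx (mem_symOn.1 hQ x hn)
  refine ⟨d2 ⟨a, k a (by simp)⟩ ⟨b, k b (by simp)⟩ ⟨c, k c (by simp)⟩ ⟨d, k d (by simp)⟩,
    ⟨⟨_, _, _, _, ?_, rfl⟩, by rw [symOn_univ]; exact mem_top _⟩, os_d2 _ _ _ _⟩
  simpa only [nodup4, ne_eq, Subtype.ext_iff] using h

theorem three {R : Finset α} (h : 3 ≤ R.card) {x : α} (hx : x ∈ R) :
    ∃ y ∈ R, ∃ z ∈ R, x ≠ y ∧ x ≠ z ∧ y ≠ z := by
  have h1 : 1 < (R.erase x).card := by rw [Finset.card_erase_of_mem hx]; omega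
  obtain ⟨y, hy, z, hz, e⟩ := Finset.one_lt_card.1 h1
  exact ⟨y, (Finset.mem_erase.1 hy).2, z, (Finset.mem_erase.1 hz).2, (Finset.mem_erase.1 hy).1.symm,
    (Finset.mem_erase.1 hz).1.symm, e⟩

theorem c3_img {ρ : Perm α} {x y z : α} (h1 : x ≠ y) (h2 : x ≠ z)
    (h : ρ * c3 x y z = c3 x y z * ρ) : ρ x = x ∨ ρ x = y ∨ ρ x = z := by
  by_contra hn
  push Not at hn
  have := congrArg (fun g : Perm α => g x) h
  simp only [Equiv.Perm.mul_apply, c3_apply_fst h1 h2, c3_apply_of_ne hn.1 hn.2.1 hn.2.2] at this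
  exact h1 (ρ.injective this).symm

theorem keeps {R : Finset α} (h : 3 ≤ R.card) {ρ : Perm α} (hρ : ∀ σ ∈ altOn R, ρ * σ = σ * ρ)
    {x : α} (hx : x ∈ R) : ρ x ∈ R := by
  obtain ⟨y, hy, z, hz, h1, h2, h3⟩ := three h hx
  rcases c3_img h1 h2 (hρ _ (c3_mem_altOn hx hy hz h1 h3)) with e | e | e <;> rwa [e]

theorem fixes {R : Finset α} (h : 3 ≤ R.card) {ρ : Perm α} (hρ : ∀ σ ∈ altOn R, ρ * σ = σ * ρ)
    {n : ℕ} (hn : ρ ^ 2 ^ n = 1) {x : α} (hx : x ∈ R) : ρ x = x := by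
  obtain ⟨y, hy, z, hz, h1, h2, h3⟩ := three h hx
  have cm : Commute ρ (c3 x y z) := hρ _ (c3_mem_altOn hx hy hz h1 h3)
  obtain ⟨i, hi⟩ : ∃ i : ℕ, ρ x = (c3 x y z ^ i) x := by
    rcases c3_img h1 h2 cm with e | e | e
    · exact ⟨0, e⟩
    · exact ⟨1, by rw [e, pow_one, c3_apply_fst h1 h2]⟩
    · exact ⟨2, by rw [e, pow_two, Equiv.Perm.mul_apply, c3_apply_fst h1 h2, c3_apply_snd h2 h3]⟩
  have e3 : (c3 x y z ^ i) ^ 3 = 1 := by rw [← pow_mul, mul_comm, pow_mul, c3_pow_three h1 h2 h3, one_pow]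
  have cd := cm.pow_right i
  generalize c3 x y z ^ i = d at hi e3 cd
  have k : ∀ v, ρ (d v) = d (ρ v) := fun v => congrArg (fun g : Perm α => g v) cd.eq
  have p3 : Function.IsPeriodicPt ρ 3 x := by
    show ρ (ρ (ρ x)) = x
    rw [hi, k, k, hi, k, hi]
    simpa [pow_succ] using congrArg (fun g : Perm α => g x) e3
  have p2 : Function.IsPeriodicPt ρ (2 ^ n) x := by
    show ρ^[2 ^ n] x = x
    rw [Equiv.Perm.iterate_eq_pow, hn, Equiv.Perm.one_apply]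
  have := p3.gcd p2
  rwa [show Nat.gcd 3 (2 ^ n) = 1 from Nat.Coprime.pow_right n (by norm_num)] at this

theorem mem_K {ψ : alternatingGroup α →* G} {R : Finset α} {g : G} :
    g ∈ C[LS ψ R] ↔ ∀ σ ∈ altOn R, g * ev ψ σ = ev ψ σ * g :=
  ⟨fun h σ hσ => (h _ (mem_LS.2 ⟨σ, hσ, rfl⟩)).symm, fun h x hx => by
    obtain ⟨σ, hσ, rfl⟩ := mem_LS.1 hx
    exact (h σ hσ).symm⟩

theorem exists_chi (ψ : alternatingGroup α →* G) (Q : Finset α) :
    ∃ χ : alternatingGroup {x // x ∈ Q} →* C[LS ψ Qᶜ],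
      ∀ s, ((ev χ s : C[LS ψ Qᶜ]) : G) = ev ψ (ofSubtype s) := by
  let χ0 : alternatingGroup {x // x ∈ Q} →* alternatingGroup α :=
    (ofSubtype.comp (alternatingGroup _).subtype).codRestrict _ fun s =>
      Equiv.Perm.mem_alternatingGroup.2 ((Equiv.Perm.sign_ofSubtype _).trans s.2)
  refine ⟨(ψ.comp χ0).codRestrict _ fun s => mem_K.2 fun σ hσ => ?_, fun s => ?_⟩
  · rw [MonoidHom.comp_apply, ← ev_coe]
    exact ev_comm (χ0 s).2 hσ.2 (commute_of_mem_symOn disjoint_compl_right (os_mem Q _) hσ.1)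
  · by_cases h : sign s = 1
    · rw [ev_of h, ev_of ((Equiv.Perm.sign_ofSubtype _).trans h)]
      rfl
    · rw [ev, dif_neg h, ev, dif_neg (by rwa [Equiv.Perm.sign_ofSubtype])]
      rfl

theorem loc (w7 : H63.AN.W7Stmt.{u}) : H63.AN.LocStmt.{u} := by
  intro G _ _ α _ _ ψ t bs kit _ h10 sw Q hQ
  obtain ⟨χ, hχ⟩ := exists_chi ψ Q
  have hR : 3 ≤ Qᶜ.card := by rw [Finset.card_compl]; omega
  have so : ∀ {s : Perm {x // x ∈ Q}}, sign s = 1 → sign (ofSubtype s) = 1 := fun h =>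
    (Equiv.Perm.sign_ofSubtype _).trans h
  have oi : Function.Injective (ofSubtype : Perm {x // x ∈ Q} → Perm α) :=
    Equiv.Perm.ofSubtype_injective
  have KK : ∀ k ∈ KA ψ, k ∈ C[LS ψ Qᶜ] := fun k hk => mem_K.2 fun σ _ => KA_ev hk σ
  have KX : ∀ k (hk : k ∈ KA ψ), (⟨k, KK k hk⟩ : C[LS ψ Qᶜ]) ∈ KA χ := fun k hk =>
    mem_KA_ev.2 fun σ _ => Subtype.ext (by
      simp only [coe_mul, hχ]; exact KA_ev hk _)
  have act : ∀ g : C[LS ψ Qᶜ], Commute g ⟨t, KK t bs.tK⟩ →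
      ∃ ρ, Acts ψ g ρ ∧ ∀ σ ∈ altOn Qᶜ, ρ * σ = σ * ρ := fun g hg => by
    obtain ⟨ρ, hρ⟩ := kit.act g (congrArg Subtype.val hg.eq)
    exact ⟨ρ, hρ, fun σ hσ => hρ.comm_perm bs.inj hσ.2 (mem_K.1 g.2 σ hσ)⟩
  have s7 : S7 χ ⟨t, KK t bs.tK⟩ := by
    refine ⟨by rw [Fintype.card_coe, hQ], fun a b e => ?_, Subtype.ext bs.t2,
      fun e => bs.t1 (congrArg Subtype.val e), KX t bs.tK, fun g hg => mem_NA fun σ => ?_,
      fun k hk hc h2 => ?_, fun w hw => ?_⟩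
    · have := congrArg Subtype.val e
      rw [← ev_coe, ← ev_coe, hχ, hχ] at this
      exact Subtype.ext (oi (ev_inj bs.inj (so a.2) (so b.2) this))
    · obtain ⟨ρ, hρ, cm⟩ := act g hg
      have im : Q.image ρ ⊆ Q := by
        intro _ hy
        obtain ⟨x, hx, rfl⟩ := Finset.mem_image.1 hy
        by_contra hn
        have := keeps hR (ρ := ρ⁻¹) (fun σ hσ => (Commute.inv_left (a := ρ) (cm σ hσ)).eq)
          (Finset.mem_compl.2 hn)
        rw [show ρ⁻¹ (ρ x) = x from ρ.symm_apply_apply x] at this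
        exact Finset.mem_compl.1 this hx
      have m := altOn_mono im (conj_mem_altOn (X := Q) ⟨os_mem Q σ, so σ.2⟩ ρ)
      obtain ⟨s, hs⟩ := os_sur m.1
      have : g * χ σ * g⁻¹ = ev χ s := Subtype.ext (by
        rw [hχ, hs, ← hρ _ (so σ.2), ← hχ, ev_coe]; rfl)
      rw [this]
      exact ev_mem s
    · obtain ⟨ρ, hρ, cm⟩ := act k hc
      obtain ⟨n, hn⟩ := h2
      have hn' : (k : G) ^ 2 ^ n = 1 := congrArg Subtype.val hn
      have e1 : ρ ^ 2 ^ n = 1 := (hρ.pow _).uniq (by omega) bs.inj (hn' ▸ acts_one)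
      have cq : ∀ σ ∈ altOn Q, ρ * σ = σ * ρ := fun σ hσ => by
        obtain ⟨s, rfl⟩ := os_sur hσ.1
        refine hρ.comm_perm bs.inj hσ.2 ?_
        rw [← hχ]
        exact congrArg Subtype.val (KA_ev hk s)
      have e2 : ρ = 1 := Equiv.ext fun x => by
        by_cases hx : x ∈ Q
        · exact fixes (by omega) cq e1 hx
        · exact fixes hR cm e1 (Finset.mem_compl.2 hx)
      exact (bs.r2 k (Acts.KA (e2 ▸ hρ)) (congrArg Subtype.val hc.eq) ⟨n, hn'⟩).imp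
        Subtype.ext Subtype.ext
    · obtain ⟨g, a, b, c, d, s, cA⟩ := sw
      have d1 := d2_card (⟨a, b, c, d, s.nd, rfl⟩ : IsD2 (d2 a b c d))
      have d' := d2_card (os_isD2 hw)
      obtain ⟨π, hπ, e⟩ := kit.typ _ _ d1.1 d'.1 (d1.2.trans d'.2.symm)
      have sd : sign (d2 a b c d) = 1 := sign_d2 (nodup4.1 s.nd).1 (nodup4.1 s.nd).2.2.2.2.2
      have ew : ev ψ (ofSubtype w) = ev ψ π * ev ψ (d2 a b c d) * (ev ψ π)⁻¹ := by
        rw [← e, ev_conj hπ sd]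
      have ct : Commute t (ev ψ π) := KA_ev bs.tK π
      refine ⟨⟨ev ψ π * g * (ev ψ π)⁻¹, mem_K.2 fun σ hσ => ?_⟩, Subtype.ext ?_, Subtype.ext ?_⟩
      · have hπ' : sign π⁻¹ = 1 := by rw [Equiv.Perm.sign_inv, hπ]
        have m : π⁻¹ * σ * π⁻¹⁻¹ ∈ altOn ({a, b, c, d}ᶜ : Finset α) := by
          refine mem_altOn.2 ⟨fun x hx => ?_, by rw [sign_conj']; exact hσ.2⟩
          have mv := (d2_moves (x := x) s.nd).2 (by rwa [Finset.mem_compl, not_not] at hx)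
          have q : π x ∈ Q := by
            by_contra hn
            have := mem_symOn.1 (os_mem Q w) _ hn
            rw [← e] at this
            exact mv (by simpa using this)
          simp [mem_symOn.1 hσ.1 (π x) (by simpa using q)]
        have := (cA _ m).eq
        rw [ev_conj hπ' hσ.2, ev_inv hπ] at this
        calc ev ψ π * g * (ev ψ π)⁻¹ * ev ψ σ
            = ev ψ π * (g * ((ev ψ π)⁻¹ * ev ψ σ * (ev ψ π)⁻¹⁻¹)) * (ev ψ π)⁻¹ := by group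
          _ = _ := by rw [this]; group
      · simp only [coe_mul, InvMemClass.coe_inv, hχ, ew]
        calc ev ψ π * g * (ev ψ π)⁻¹ * t * (ev ψ π * g * (ev ψ π)⁻¹)⁻¹
            = ev ψ π * (g * ((ev ψ π)⁻¹ * (t * ev ψ π)) * g⁻¹) * (ev ψ π)⁻¹ := by group
          _ = (ev ψ π * t) * ev ψ (d2 a b c d) * (ev ψ π)⁻¹ := by
            rw [ct.eq, inv_mul_cancel_left, s.gt]; group
          _ = _ := by rw [← ct.eq]; group
      · simp only [coe_mul, hχ, ew]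
        calc ev ψ π * g * (ev ψ π)⁻¹ * (ev ψ π * ev ψ (d2 a b c d) * (ev ψ π)⁻¹)
            = ev ψ π * (g * ev ψ (d2 a b c d)) * (ev ψ π)⁻¹ := by group
          _ = _ := by rw [s.gw.eq]; group
  obtain ⟨f, L⟩ := w7 χ _ s7
  have li := Function.leftInverse_invFun oi
  refine ⟨fun w => f (Function.invFun ofSubtype w), fun w hw => ?_, fun w hw => ?_,
    fun w hw a ha => ?_, fun v v' hv hv' hvv c => ?_, fun w w' hw hw' => ?_,
    fun w hw k hk c o => ?_⟩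
  · obtain ⟨s, hs, rfl⟩ := os_inQ hw
    rw [li]
    exact congrArg Subtype.val (L.sq s hs)
  · obtain ⟨s, hs, rfl⟩ := os_inQ hw
    rw [li, ← hχ]
    exact congrArg Subtype.val (L.ft s hs)
  · obtain ⟨s, hs, rfl⟩ := os_inQ hw
    obtain ⟨b, rfl⟩ := os_sur ha.1
    rw [← map_inv, ← map_mul, ← map_mul, li, li, ← hχ]
    exact congrArg Subtype.val (L.eqv s hs b (mem_altOn.2 ⟨fun x hx => absurd (Finset.mem_univ x) hx,
      (Equiv.Perm.sign_ofSubtype _).symm.trans ha.2⟩))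
  · obtain ⟨s, hs, rfl⟩ := os_inQ hv
    obtain ⟨s', hs', rfl⟩ := os_inQ hv'
    obtain ⟨r, hr, e⟩ := os_inQ hvv
    rw [← map_mul] at e ⊢
    rw [li, li, li]
    exact congrArg Subtype.val (L.mul s s' hs hs' (oi e ▸ hr)
      (oi (by rw [map_mul, map_mul]; exact c.eq)))
  · obtain ⟨s, hs, rfl⟩ := os_inQ hw
    obtain ⟨s', hs', rfl⟩ := os_inQ hw'
    rw [li, li, ← hχ]
    exact congrArg Subtype.val (L.com s s' hs hs').eq
  · obtain ⟨s, hs, rfl⟩ := os_inQ hw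
    rw [li]
    exact congrArg Subtype.val (L.cO s hs _ (KX k hk) (Subtype.ext c.eq)
      (by rwa [← Subgroup.orderOf_coe])).eq

end Cfsg.Agent.H38.AnLoc
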