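import Cfsg.Agent.H35.RfQ

/-! Project RF: the centralizer of a non-central involution of `Q` outside `W` (code case). -/

set_option autoImplicit false
set_option linter.unusedVariables false

namespace Cfsg.Agent.H38.RfCi

open Cfsg Subgroup Cfsg.Agent.H18.Rf Cfsg.Agent.H35.RF

universe u

theorem idx_of_ker {H X : Type*} [Group H] (S : Subgroup H) (φ : H → X)
    (h : ∀ a b, φ a = φ b ↔ a⁻¹ * b ∈ S) : S.index = (Set.range φ).ncard := by
  have e : QuotientGroup.leftRel S = Setoid.ker φ := by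
    ext a b
    rw [QuotientGroup.leftRel_apply, Setoid.ker_def, h]
  have e1 : S.index = Nat.card (Quotient (QuotientGroup.leftRel S)) := rfl
  rw [e1, e, Nat.card_congr (Setoid.quotientKerEquivRange φ), Nat.card_coe_set_eq]

variable {G : Type u} [Group G]

theorem card_split [Finite G] (H K : Subgroup G) :
    Nat.card H = K.relIndex H * Nat.card ↥(H ⊓ K) := by
  have h1 := (K.subgroupOf H).index_mul_card
  have h2 : Nat.card (K.subgroupOf H) = Nat.card ↥(H ⊓ K) := by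
    rw [← inf_subgroupOf_left K H]
    exact Nat.card_congr (subgroupOfEquivOfLe inf_le_left).toEquiv
  rw [← h1, h2]
  rfl

theorem orb (H : Subgroup G) (q : G) :
    (C1 q).relIndex H = (Set.range fun s : H => (s : G) * q * (s : G)⁻¹).ncard := by
  refine idx_of_ker _ _ fun a b => ?_
  rw [mem_subgroupOf, mem_centralizer_singleton_iff]
  simp only [coe_mul, coe_inv]
  constructor
  · intro h
    calc (a : G)⁻¹ * b * q = (a : G)⁻¹ * (b * q * (b : G)⁻¹) * b := by group
      _ = (a : G)⁻¹ * (a * q * (a : G)⁻¹) * b := by rw [h]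
      _ = q * ((a : G)⁻¹ * b) := by group
  · intro h
    calc (a : G) * q * (a : G)⁻¹ = a * (q * ((a : G)⁻¹ * b)) * (b : G)⁻¹ := by group
      _ = a * ((a : G)⁻¹ * b * q) * (b : G)⁻¹ := by rw [h]
      _ = b * q * (b : G)⁻¹ := by group

theorem ci : CiStmt.{u} := by
  intro G _ _ V z W R Q va ga gb ql lc hfix q hq hqW hqq
  have hqV : q ∉ V := fun h => hqW (ql.inf ▸ (⟨hq, h⟩ : q ∈ Q ⊓ V))
  have hqR : q ∈ R := ql.sup ▸ mem_sup_left hq
  have hqN : q ∈ NN V := (va.RM hqR).1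
  have cjV : ∀ n ∈ NN V, ∀ x, x ∈ V ↔ n * x * n⁻¹ ∈ V := fun n hn => mem_normalizer_iff.1 hn
  set M := MM V z with hM
  set S := M ⊓ CM ({q} : Set G) V with hS
  have memS : ∀ s, s ∈ S ↔ s ∈ M ∧ s * q * s⁻¹ * q⁻¹ ∈ V := by
    intro s
    constructor
    · rintro ⟨h1, h2⟩
      exact ⟨h1, (mem_CM.1 h2).2 q rfl⟩
    · rintro ⟨h1, h2⟩
      refine ⟨h1, mem_CM.2 ⟨h1.1, fun x hx => ?_⟩⟩
      rw [Set.mem_singleton_iff.1 hx]
      exact h2
  -- the index of `V` in `R`
  have iR : (Set.range fun r : R => ((r : G) : G ⧸ V)).ncard = 16 := by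
    have h1 : V.relIndex R = (Set.range fun r : R => ((r : G) : G ⧸ V)).ncard := by
      refine idx_of_ker _ _ fun a b => ?_
      rw [QuotientGroup.eq, mem_subgroupOf]
      rfl
    have h2 := card_split R V
    rw [inf_eq_right.2 va.VR, va.cV, ga.cR, h1] at h2
    omega
  -- the index of `S` in `M`
  have iS : (CM ({q} : Set G) V).relIndex M = 15 := by
    have h1 : (CM ({q} : Set G) V).relIndex M =
        (Set.range fun m : M => (((m : G) * q * (m : G)⁻¹ : G) : G ⧸ V)).ncard := by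
      refine idx_of_ker _ _ fun a b => ?_
      rw [QuotientGroup.eq, mem_subgroupOf]
      have hab : ((a⁻¹ * b : M) : G) ∈ M := (a⁻¹ * b).2
      have e1 : ((a : G) * q * (a : G)⁻¹)⁻¹ * (b * q * (b : G)⁻¹) =
          (a * q⁻¹) * (((a⁻¹ * b : M) : G) * q * ((a⁻¹ * b : M) : G)⁻¹ * q⁻¹) * ((a : G) * q⁻¹)⁻¹ := by
        simp only [coe_mul, coe_inv]
        group
      rw [e1, ← cjV _ (mul_mem a.2.1 (inv_mem hqN))]
      constructor
      · intro h
        exact ((memS _).2 ⟨hab, h⟩).2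
      · intro h
        exact ((memS _).1 ⟨hab, h⟩).2
    have h2 : (Set.range fun m : M => (((m : G) * q * (m : G)⁻¹ : G) : G ⧸ V)) =
        (Set.range fun r : R => ((r : G) : G ⧸ V)) \ {((1 : G) : G ⧸ V)} := by
      ext x
      constructor
      · rintro ⟨m, rfl⟩
        refine ⟨⟨⟨_, (mem_normalizer_iff.1 (va.nR m.2) q).1 hqR⟩, rfl⟩, fun h => hqV ?_⟩
        have h' := QuotientGroup.eq.1 (Set.mem_singleton_iff.1 h)
        rw [mul_one, inv_mem_iff] at h'
        exact (cjV _ m.2.1 q).2 h'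
      · rintro ⟨⟨r, rfl⟩, h⟩
        have hr : (r : G) ∉ V := fun h' => h (Set.mem_singleton_iff.2
          (QuotientGroup.eq.2 (by rw [mul_one]; exact inv_mem h')))
        obtain ⟨m, hm, h1⟩ := gb.trR q hqR hqV r r.2 hr
        refine ⟨⟨m, hm⟩, QuotientGroup.eq.2 ?_⟩
        have h3 := (cjV _ (inv_mem (va.RM r.2).1) _).1 (inv_mem h1)
        have e : (r : G)⁻¹ * (m * q * m⁻¹ * (r : G)⁻¹)⁻¹ * (r : G)⁻¹⁻¹ = (m * q * m⁻¹)⁻¹ * r := by
          group
        rwa [e] at h3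
    have h3 : ((1 : G) : G ⧸ V) ∈ Set.range fun r : R => ((r : G) : G ⧸ V) :=
      ⟨⟨1, one_mem _⟩, rfl⟩
    rw [h1, h2, Set.ncard_sdiff_singleton_of_mem h3, iR]
  -- the orbit of `q` under `S`
  have cWq : Nat.card ↥(W ⊓ C1 q) ≤ 16 := by
    have h1 := card_split W (C1 q)
    have h2 : (C1 q).relIndex W ≠ 1 := by
      intro h
      have h3 := relIndex_eq_one.1 h
      refine hqW (lc.cw ▸ (⟨hq, ?_⟩ : q ∈ Q ⊓ CC W))
      refine mem_centralizer_iff.2 fun w hw => ?_
      exact mem_centralizer_singleton_iff.1 (h3 hw)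
    rw [ga.cW] at h1
    have h4 : (C1 q).relIndex W ≠ 0 := by
      intro h
      rw [h] at h1
      omega
    have h5 : 2 ≤ (C1 q).relIndex W := by omega
    nlinarith
  have up : (Set.range fun s : S => (s : G) * q * (s : G)⁻¹).ncard ≤ 16 := by
    have h1 : (Set.range fun s : S => (s : G) * q * (s : G)⁻¹) ⊆
        (fun w => w * q) '' ((W ⊓ C1 q : Subgroup G) : Set G) := by
      rintro x ⟨s, rfl⟩
      obtain ⟨h1, h2⟩ := (memS _).1 s.2
      have h3 : (s : G) * q * (s : G)⁻¹ ∈ Q := (mem_normalizer_iff.1 (ql.nQ h1) q).1 hq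
      have h4 : (s : G) * q * (s : G)⁻¹ * q⁻¹ ∈ W :=
        ql.inf ▸ (mem_inf.2 ⟨Q.mul_mem h3 (Q.inv_mem hq), h2⟩)
      refine ⟨(s : G) * q * (s : G)⁻¹ * q⁻¹, ⟨h4, ?_⟩, by group⟩
      have h5 := va.el _ h2
      have h6 : ((s : G) * q * (s : G)⁻¹) * ((s : G) * q * (s : G)⁻¹) = 1 := by
        calc _ = (s : G) * (q * q) * (s : G)⁻¹ := by group
          _ = 1 := by rw [hqq]; group
      have hqi : q⁻¹ = q := inv_eq_of_mul_eq_one_right hqq
      generalize (s : G) * q * (s : G)⁻¹ = y at h5 h6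
      have hyi : y⁻¹ = y := inv_eq_of_mul_eq_one_right h6
      refine mem_centralizer_singleton_iff.2 ?_
      rw [hqi] at h5 ⊢
      have h7 : y * q = q * y := by
        have := inv_eq_of_mul_eq_one_right h5
        rw [mul_inv_rev, hqi, hyi] at this
        exact this.symm
      calc y * q * q = q * y * q := by rw [h7]
        _ = q * (y * q) := by group
    calc _ ≤ _ := Set.ncard_le_ncard h1 (Set.toFinite _)
      _ ≤ ((W ⊓ C1 q : Subgroup G) : Set G).ncard := Set.ncard_image_le (Set.toFinite _)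
      _ = Nat.card ↥(W ⊓ C1 q) := (Nat.card_coe_set_eq _).symm
      _ ≤ 16 := cWq
  have VS : V ≤ S := fun v hv => (memS v).2 ⟨va.RM (va.VR hv), va.WV (lc.vq v hv q hq)⟩
  have lo : (C1 q).relIndex V ≤ (Set.range fun s : S => (s : G) * q * (s : G)⁻¹).ncard := by
    rw [orb]
    refine Set.ncard_le_ncard ?_ (Set.toFinite _)
    rintro x ⟨v, rfl⟩
    exact ⟨⟨v, VS v.2⟩, rfl⟩
  have iV : 16 ≤ (C1 q).relIndex V := by
    have h1 := card_split V (C1 q)
    have h2 : Nat.card ↥(V ⊓ C1 q) < 2 ^ 8 := by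
      by_contra h
      exact hqV (hfix q hqN (not_lt.1 h))
    rw [va.cV] at h1
    have h3 : (C1 q).relIndex V ∣ 2 ^ 11 := ⟨_, h1⟩
    have h4 : 8 < (C1 q).relIndex V := by
      by_contra h
      have := not_lt.1 h
      nlinarith
    obtain ⟨k, hk, hk'⟩ := (Nat.dvd_prime_pow Nat.prime_two).1 h3
    rw [hk'] at h4 ⊢
    have h5 : 3 < k := by
      by_contra h
      have : 2 ^ k ≤ 2 ^ 3 := Nat.pow_le_pow_right (by norm_num) (not_lt.1 h)
      omega
    calc 16 = 2 ^ 4 := by norm_num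
      _ ≤ 2 ^ k := Nat.pow_le_pow_right (by norm_num) h5
  have iq : (C1 q).relIndex S = 16 := by
    rw [orb]
    omega
  have e : S ⊓ C1 q = M ⊓ C1 q := by
    refine le_antisymm (inf_le_inf_right _ inf_le_left) ?_
    rintro x ⟨h1, h2⟩
    refine ⟨(memS x).2 ⟨h1, ?_⟩, h2⟩
    rw [mem_centralizer_singleton_iff.1 h2]
    simp
  have c1 := card_split M (CM ({q} : Set G) V)
  have c2 := card_split S (C1 q)
  rw [iS, ga.cM, ← hS] at c1
  rw [iq, e] at c2
  omega

end Cfsg.Agent.H38.RfCi
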